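import Cfsg.Agent.H20.BrauerFeit.Local
import Cfsg.Agent.H56.ContribBounds
import Cfsg.Agent.H41.CentralSubsections
import Cfsg.Agent.S4733

/-!
# The bound of Brauer and Feit on the number of characters in a block
-/

set_option autoImplicit false
set_option linter.unusedSectionVars false

open scoped ComplexConjugate

namespace Cfsg.Agent.H20.BrauerFeit

open Cfsg.Agent.H56.Subsec (CZ yC mem' mem_mem' cont scal mult)

universe u

variable {p : ℕ} [hp : Fact p.Prime] {M : Ideal Cfsg.AlgInt}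

section Sub

variable {G : Type u} [Group G] [Fintype G] (y : G)

theorem zpowers_yC_normal : (Subgroup.zpowers (H56.Subsec.yC y)).Normal := by
  refine ⟨fun x hx c => ?_⟩
  obtain ⟨i, rfl⟩ := Subgroup.mem_zpowers_iff.1 hx
  have h : Commute c (H56.Subsec.yC y ^ i) :=
    (show Commute c (H56.Subsec.yC y) from H56.Subsec.commute_yC y c).zpow_right i
  rw [h.eq, mul_inv_cancel_right]
  exact Subgroup.zpow_mem _ (Subgroup.mem_zpowers _) i

theorem sup_centralizer_yC :
    Subgroup.zpowers (H56.Subsec.yC y) ⊔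
      Subgroup.centralizer (Subgroup.zpowers (H56.Subsec.yC y) : Set (CZ y)) = ⊤ := by
  refine top_le_iff.1 (le_trans (fun c _ => ?_) le_sup_right)
  rw [H40.centralizer_zpowers_eq, Subgroup.mem_centralizer_singleton_iff]
  exact H56.Subsec.commute_yC y c

theorem card_zpowers_yC (hy : orderOf y = p) :
    Nat.card (Subgroup.zpowers (H56.Subsec.yC y)) = p := by
  rw [Nat.card_zpowers, ← Subgroup.orderOf_coe]
  exact hy

open scoped Classical in
/-- Defect two, heights zero: at most `p ^ 2` characters. -/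
theorem card_le_sq_of_major (hM : Cfsg.IsPModular p M) {B : Set (Cfsg.IrrCharacter G)}
    (hh : ∀ χ ∈ B, Cfsg.blockHeight p B (χ : G → ℂ) = 0) (hy : orderOf y = p)
    {b : Set (Cfsg.IrrCharacter (CZ y))} (hind : Cfsg.IsInducedBlock M (CZ y) b B)
    (hbd : Cfsg.blockDefect p b = 2) : Nat.card B ≤ p ^ 2 := by
  have := hM.2.1
  have := zpowers_yC_normal y
  obtain ⟨m, D, R, hS, hform, hrank⟩ := exists_form_data
    (Q := Subgroup.zpowers (H56.Subsec.yC y)) hM hind.1 hbd (card_zpowers_yC y hy)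
    (sup_centralizer_yC y)
  have hyp : ∃ k : ℕ, orderOf y = p ^ k := ⟨1, by rw [pow_one, hy]⟩
  have hyN : y ^ p = 1 := by rw [← hy, pow_orderOf_eq_one]
  set T := mem' B with hT
  have hne : ∀ χ ∈ T, ∑ φ ∈ mem' b, ∑ η ∈ mem' b,
      (((mult y χ φ : ℤ) : ℂ) * ((mult y χ η : ℤ) : ℂ)) * (H32.scaledReg p b φ η : ℂ) *
        (scal y φ * (scal y η)⁻¹) ≠ 0 := by
    intro χ hχ h0
    have hc : cont p y b χ χ 1 = 0 := by
      rw [← h0]
      simp only [cont, pow_one, Nat.cast_mul, Int.cast_natCast]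
    refine H56.Subsec.res_cont_ne_zero hM hyp hind (mem_mem'.1 hχ) (hh χ (mem_mem'.1 hχ))
      (mem_mem'.1 hχ) (hh χ (mem_mem'.1 hχ)) 1
      (H41.isIntegral_mem_localRing (H56.Subsec.isIntegral_cont χ χ 1)) ?_
    rw [← map_zero (H41.res M)]
    exact congrArg _ (Subtype.ext hc)
  choose! z hz hzle using fun χ (hχ : χ ∈ T) =>
    exists_twist_sum hp.out (mem' b) (scal y) (fun φ => H56.Subsec.scal_pow y hyN φ)
      (fun φ => (mult y χ φ : ℤ)) D R hform (fun φ η => H32.scaledReg p b φ η)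
      (fun φ hφ η hη => hS φ (mem_mem'.1 hφ) η (mem_mem'.1 hη)) (hne χ hχ)
  have hsum : ∑ χ ∈ T, z χ = ((p : ℤ) - 1) * ((p : ℤ) ^ 2 * (Cfsg.blockRank p b : ℤ)) := by
    apply Int.cast_injective (α := ℂ)
    rw [Int.cast_sum, ← Finset.sum_congr rfl hz, Finset.sum_comm]
    have hk : ∀ k ∈ Finset.Ico 1 p, ∑ χ ∈ T, ∑ φ ∈ mem' b, ∑ η ∈ mem' b,
        (((mult y χ φ : ℤ) : ℂ) * ((mult y χ η : ℤ) : ℂ)) * (H32.scaledReg p b φ η : ℂ) *
          (scal y φ ^ k * (scal y η)⁻¹ ^ k) =
        (p : ℂ) ^ 2 * (Cfsg.blockRank p b : ℂ) := by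
      intro k hk
      obtain ⟨hk1, hkp⟩ := Finset.mem_Ico.1 hk
      have hu : k ∈ H56.Twist.units p := by
        rw [H56.Twist.units, Finset.mem_filter, Finset.mem_range]
        exact ⟨hkp, ((hp.out.coprime_iff_not_dvd).2
          (Nat.not_dvd_of_pos_of_lt hk1 hkp)).symm⟩
      rw [← hbd, ← H56.Subsec.sum_cont_self_twist hM hyp hind hp.out.ne_zero hyN hu]
      refine Finset.sum_congr rfl fun χ _ => ?_
      simp only [cont, Nat.cast_mul, Int.cast_natCast]
    rw [Finset.sum_congr rfl hk, Finset.sum_const, Nat.card_Ico, nsmul_eq_mul]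
    push_cast [Nat.cast_sub hp.out.one_le]
    ring
  have hle : (T.card : ℤ) * (((p : ℤ) - 1) * m) ≤ ∑ χ ∈ T, z χ := by
    rw [← nsmul_eq_mul, ← Finset.sum_const]
    exact Finset.sum_le_sum hzle
  have hcard : T.card = Nat.card B := by
    rw [Nat.card_eq_fintype_card]
    exact (Fintype.card_of_finset' T fun χ => mem_mem').symm
  have hne0 : T.Nonempty := by
    obtain ⟨χ, hχ⟩ := H41.IsPBlock.nonempty hind.2.1
    exact ⟨χ, mem_mem'.2 hχ⟩
  have hm : 0 < m := by
    obtain ⟨χ, hχ⟩ := hne0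
    by_contra h
    obtain rfl : m = 0 := by omega
    refine hne χ hχ (Finset.sum_eq_zero fun φ hφ => Finset.sum_eq_zero fun η hη => ?_)
    rw [hS φ (mem_mem'.1 hφ) η (mem_mem'.1 hη)]
    simp [dotProduct]
  rw [hsum, hcard] at hle
  have hp1 : (0 : ℤ) < (p : ℤ) - 1 := by
    have := hp.out.two_le
    omega
  have h1 : (Nat.card B : ℤ) * m ≤ (p : ℤ) ^ 2 * m := by
    refine le_trans ?_ (mul_le_mul_of_nonneg_left (Int.ofNat_le.2 hrank) (by positivity))
    refine le_of_mul_le_mul_left ?_ hp1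
    linarith
  exact_mod_cast le_of_mul_le_mul_right h1 (by exact_mod_cast hm : (0 : ℤ) < (m : ℤ))

/-- The rank of a major block is at most the size of the block below. -/
theorem exists_quot_block (hM : Cfsg.IsPModular p M) (hy : orderOf y = p) {d : ℕ}
    {b : Set (Cfsg.IrrCharacter (CZ y))} (hb : Cfsg.IsPBlock M b)
    (hbd : Cfsg.blockDefect p b = d + 1) :
    ∃ (H : Type u) (_ : Group H) (_ : Fintype H) (B₁ : Set (Cfsg.IrrCharacter H)),
      Cfsg.IsPBlock M B₁ ∧ Cfsg.blockDefect p B₁ = d ∧ Cfsg.blockRank p b ≤ Nat.card B₁ := by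
  classical
  have := zpowers_yC_normal y
  have hQ : IsPGroup p (Subgroup.zpowers (H56.Subsec.yC y)) :=
    IsPGroup.of_card (n := 1) (by rw [card_zpowers_yC y hy, pow_one])
  have hsup := sup_centralizer_yC y
  refine ⟨CZ y ⧸ Subgroup.zpowers (H56.Subsec.yC y), inferInstance, Fintype.ofFinite _,
    H40.quotSet _ b, isPBlock_quotSet hM hb hQ hsup, ?_, blockRank_le_card_quot hM hb hQ hsup⟩
  have h := blockDefect_quotSet hM hb hQ hsup (j := 1)
    (by rw [card_zpowers_yC y hy, pow_one])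
  omega

end Sub

/-- A block of positive defect has a major subsection at an element of order `p`. -/
theorem exists_major_prime {G : Type u} [Group G] [Fintype G] (hM : Cfsg.IsPModular p M)
    {B : Set (Cfsg.IrrCharacter G)} (hB : Cfsg.IsPBlock M B) (hd : 0 < Cfsg.blockDefect p B) :
    ∃ y : G, orderOf y = p ∧ ∃ b : Set (Cfsg.IrrCharacter (CZ y)),
      Cfsg.IsInducedBlock M (CZ y) b B ∧ Cfsg.blockDefect p b = Cfsg.blockDefect p B := by
  have := hM.2.1
  have := H41.IsPModular.charP hM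
  have hblk := H22.isBlockEl_elTop hB
  have hbot : H22.IsPairEl p ⊤ ((⊥ : Subgroup G), H22.elTop M B) :=
    ⟨bot_le, IsPGroup.of_bot, by rw [H22.cen_bot]; exact hblk⟩
  have hbel : H22.Below (H22.elTop M B) ((⊥ : Subgroup G), H22.elTop M B) := by
    rw [H22.Below, H22.cut_of_supp, hblk.idem]
    intro x _
    simp [Subgroup.mem_centralizer_iff]
  obtain ⟨⟨P, e⟩, hm, -⟩ := H22.exists_isMaxEl_ge hblk hbot hbel
  have hP := (H22.isDefectGroup_top_iff hM hB).2 (hm.isDefEl (H22.split M G) hblk)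
  have hcard : Nat.card P = p ^ Cfsg.blockDefect p B := H40.card_defectGroup hM hB hP
  have : Nontrivial P := by
    rw [← Finite.one_lt_card_iff_nontrivial, hcard]
    exact Nat.one_lt_pow hd.ne' hp.out.one_lt
  have hPp : IsPGroup p P := H40.isPGroup_of_isDefectGroup hP
  have := hPp.center_nontrivial
  have hpc : p ∣ Nat.card (Subgroup.center P) := by
    obtain ⟨n, hn0, hn⟩ := (IsPGroup.nontrivial_iff_card (hPp.to_subgroup (Subgroup.center P))).1
      inferInstance
    exact hn ▸ dvd_pow_self p hn0.ne'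
  obtain ⟨z, hz⟩ := exists_prime_orderOf_dvd_card' p hpc
  refine ⟨((z : P) : G), by rw [Subgroup.orderOf_coe, Subgroup.orderOf_coe, hz], ?_⟩
  have hzC : ((z : P) : G) ∈ Subgroup.centralizer (P : Set G) := by
    rw [Subgroup.mem_centralizer_iff]
    intro x hx
    exact congrArg Subtype.val (Subgroup.mem_center_iff.1 z.2 ⟨x, hx⟩)
  obtain ⟨b, hb, hbd, -⟩ := H41.Central.exists_major hM hB hm (z : P).2 hzC
  exact ⟨b, hb, hbd⟩

/-- The bound. -/
def bfBound (p d : ℕ) : ℕ := if d ≤ 2 then p ^ d else p ^ (2 * d - 2)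

/-- **Brauer and Feit.** -/
theorem card_le_bfBound (hM : Cfsg.IsPModular p M) :
    ∀ (d : ℕ) (G : Type u) [Group G] [Fintype G] (B : Set (Cfsg.IrrCharacter G)),
      Cfsg.IsPBlock M B → Cfsg.blockDefect p B = d → Nat.card B ≤ bfBound p d := by
  intro d
  induction d with
  | zero =>
    intro G _ _ B hB hd
    have h := ((Cfsg.Agent.S4733.result p M hM B hB).2.1.1 hd).1
    simp [bfBound, h]
  | succ d ih =>
    intro G _ _ B hB hd
    have hp2 := hp.out.two_le
    by_cases hh : ∀ χ ∈ B, Cfsg.blockHeight p B (χ : G → ℂ) = 0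
    swap
    · push Not at hh
      obtain ⟨χ, hχ, hpos⟩ := hh
      have h := H42.two_mul_card_le hM hB hχ (Nat.pos_of_ne_zero hpos)
      rw [hd] at h
      have h' : Nat.card B ≤ p ^ (2 * (d + 1) - 2) := by omega
      rw [bfBound]
      split_ifs with hd2
      · exact h'.trans (Nat.pow_le_pow_right hp.out.pos (by omega))
      · exact h'
    obtain ⟨y, hy, b, hind, hbd⟩ := exists_major_prime hM hB (by omega)
    rw [hd] at hbd
    by_cases hd1 : d = 1
    · subst hd1
      exact card_le_sq_of_major y hM hh hy hind hbd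
    obtain ⟨H, iG, iF, B₁, hB₁, hB₁d, hrank⟩ := exists_quot_block y hM hy hind.1 hbd
    have hk := hrank.trans (ih H B₁ hB₁ hB₁d)
    have hsq := H32.sq_card_le_of_major hM hB hh (d := d + 1) ⟨1, by rw [pow_one]; exact hy⟩
      (CZ y) rfl (H40.centralizer_zpowers_eq y) hind hbd
    have h2 : Nat.card B ^ 2 ≤ p ^ (2 * (d + 1)) * bfBound p d :=
      hsq.trans (Nat.mul_le_mul_left _ hk)
    refine (Nat.pow_le_pow_iff_left (n := 2) two_ne_zero).1 (h2.trans ?_)
    have hexp : ∀ a b c : ℕ, a + b ≤ 2 * c → p ^ a * p ^ b ≤ (p ^ c) ^ 2 := fun a b c h => by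
      rw [← pow_add, ← pow_mul]
      exact Nat.pow_le_pow_right hp.out.pos (by omega)
    rw [bfBound, bfBound]
    split_ifs with ha hb <;> exact hexp _ _ _ (by omega)

end Cfsg.Agent.H20.BrauerFeit
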